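import Cfsg.Agent.Lib.Fischer.CoreThree.Global

/-!
Fischer: if the subgroup generated by the members commuting with one member has a non-central odd core, the group is
the symmetric group of degree five.
-/
set_option autoImplicit false

namespace CfsgLib.Fischer.CoreThree

open CfsgLib.Fischer Transitivity

variable {G : Type*} [Group G] [Finite G] {D : Set G} {x : G}

theorem oddCore_le_center (hD : Cfsg.IsThreeTranspositionClass D)
    (h3 : Cfsg.pCore 3 G ≤ Subgroup.center G) : Cfsg.oddCore G ≤ Subgroup.center G := by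
  have hG := group_of_class hD
  obtain ⟨d, hd, -⟩ := hD.2.1
  haveI : (Cfsg.oddCore G).Normal := (inferInstance : (Cfsg.pPrimeCore 2 G).Normal)
  have hodd := CfsgLib.Cores.odd_card_oddCore (G := G)
  have hdd := sq_eq_one hD.1 hd
  have hw : ∀ g ∈ Cfsg.oddCore G, Commute d (g * d * g⁻¹) → g * d * g⁻¹ = d := by
    intro g hg hc
    have hm : d * (g * d * g⁻¹) ∈ Cfsg.oddCore G := by
      rw [show d * (g * d * g⁻¹) = d * g * d⁻¹ * g⁻¹ by rw [inv_eq hD.1 hd]; group]
      exact mul_mem ((inferInstance : (Cfsg.oddCore G).Normal).conj_mem g hg d) (inv_mem hg)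
    have h2 := (sq_mul_iff hD.1 hd (hG.2.1 g d hd)).2 hc
    have h1 : orderOf (d * (g * d * g⁻¹)) = 1 := by
      have hdvd := orderOf_dvd_of_pow_eq_one h2
      rcases (Nat.dvd_prime Nat.prime_two).1 hdvd with e | e
      · exact e
      · exfalso
        have := (Subgroup.orderOf_dvd_natCard _ hm)
        rw [e] at this
        exact (Nat.not_even_iff_odd.2 hodd) (even_iff_two_dvd.2 this)
    rw [orderOf_eq_one_iff, mul_eq_one_iff_eq_inv, inv_eq hD.1 (hG.2.1 g d hd)] at h1
    exact h1.symm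
  refine le_center_of_centralized hD hd fun g hg => ?_
  have hc : Commute d (d * (g * d * g⁻¹)) :=
    Subgroup.mem_center_iff.1 (h3 (orbit_mul_mem_pCore_three hG hd hw g hg)) d
  have hc' : Commute d (g * d * g⁻¹) := by
    have := (Commute.refl d).mul_right hc
    rwa [← mul_assoc, hdd, one_mul] at this
  have := hw g hg hc'
  exact (mul_inv_eq_iff_eq_mul.1 this).symm

/-- Fischer's theorem on the odd core. -/
theorem iso_sym_five_of_oddCore (hsol : ∀ N : Subgroup G, N.Normal → Group.IsSolvable ↥N → N = ⊥)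
    (hperf : ⁅commutator G, commutator G⁆ = commutator G) (hD : Cfsg.IsThreeTranspositionClass D) (hx : x ∈ D)
    (h : ¬ Cfsg.oddCore ↥(Subgroup.closure (perp D x)) ≤ Subgroup.center ↥(Subgroup.closure (perp D x))) :
    Nonempty (G ≃* Equiv.Perm (Fin 5)) := by
  have hG := group_of_class hD
  have hne : (perp D x).Nonempty := by
    by_contra he
    rw [Set.not_nonempty_iff_eq_empty] at he
    refine h fun t _ => Subgroup.mem_center_iff.2 fun u => Subtype.ext ?_
    have ht := t.2
    have hu := u.2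
    simp only [he, Subgroup.closure_empty, Subgroup.mem_bot] at ht hu
    simp [ht, hu]
  obtain ⟨b, hb⟩ := hne
  obtain ⟨hprim, hconn⟩ := primitive_connected hD hsol hperf ⟨x, hx, b, hb.1, Ne.symm hb.2.1, hb.2.2⟩
  have h3 : Cfsg.pCore 3 G = ⊥ := by
    haveI : Fact (Nat.Prime 3) := ⟨Nat.prime_three⟩
    haveI := CfsgLib.Cores.pCore_characteristic 3 G
    haveI := (CfsgLib.Cores.isPGroup_pCore 3 G).isNilpotent
    exact hsol _ inferInstance inferInstance
  have hW3 : ∀ a ∈ D, ∀ b ∈ D, perp D a = perp D b → a = b := by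
    intro a ha b hb e
    have := SameW.mem_pCore hG (⟨hb, e⟩ : SameW D a b) ha
    rw [h3, Subgroup.mem_bot, mul_eq_one_iff_eq_inv, inv_eq hD.1 hb] at this
    exact this
  have htrans : ∀ x ∈ D, ∀ b ∈ perp D x, ∀ b' ∈ perp D x, b' ∈ orb D x b := fun x hx b hb b' hb' =>
    transitive hD hprim hconn hx hb hb'
  -- the pair inside the subgroup
  set H := Subgroup.closure (perp D x)
  let DH : Set H := {t : H | (t : G) ∈ perp D x}
  have hDH : Cfsg.IsThreeTranspositionGroup DH :=
    ⟨subset (restrict hG.1 H) DH fun t ht => ht.1, fun g t ht => perp_conj_mem hG g.2 ht,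
      Subgroup.closure_closure_coe_preimage⟩
  let b₀ : H := ⟨b, Subgroup.subset_closure hb⟩
  have hC : Cfsg.IsThreeTranspositionClass DH := by
    refine class_of_group hDH (show b₀ ∈ DH from hb) fun t ht => ?_
    obtain ⟨k, hk, e⟩ := htrans x hx b hb t ht
    exact ⟨⟨k, hk⟩, Subtype.ext e⟩
  obtain ⟨c₀, hc₀, hne'⟩ := exists_sameW_of_pCore hC (show b₀ ∈ DH from hb) fun e => h (oddCore_le_center hC e)
  have hbase : WRel D x b c₀ := by
    refine ⟨hb, hc₀.1, Set.ext fun t => ?_⟩
    constructor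
    · rintro ⟨ht, -, h1, h2⟩
      have hm : (⟨t, Subgroup.subset_closure ht⟩ : H) ∈ perp DH b₀ :=
        ⟨ht, fun e => h1 (congrArg Subtype.val e), Subtype.ext h2⟩
      rw [hc₀.2] at hm
      exact ⟨ht, ht.1, fun e => hm.2.1 (Subtype.ext e), congrArg Subtype.val hm.2.2.eq⟩
    · rintro ⟨ht, -, h1, h2⟩
      have hm : (⟨t, Subgroup.subset_closure ht⟩ : H) ∈ perp DH c₀ :=
        ⟨ht, fun e => h1 (congrArg Subtype.val e), Subtype.ext h2⟩
      rw [← hc₀.2] at hm
      exact ⟨ht, ht.1, fun e => hm.2.1 (Subtype.ext e), congrArg Subtype.val hm.2.2.eq⟩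
  have hpart : ∀ x' ∈ D, ∀ b' ∈ perp D x', ∃ c, c ≠ b' ∧ WRel D x' b' c := by
    intro x' hx' b' hb'
    obtain ⟨g, rfl⟩ := exists_conj_of_class hD hx hx'
    obtain ⟨k, hk, e⟩ := htrans _ hx' _ (image_perp hG g hb) b' hb'
    have hkx : k * (g * x * g⁻¹) * k⁻¹ = g * x * g⁻¹ := by
      have hc : k ∈ Subgroup.centralizer ({g * x * g⁻¹} : Set G) :=
        (Subgroup.closure_le _).2 (fun t ht => Subgroup.mem_centralizer_singleton_iff.2 ht.2.2.symm.eq) hk
      rw [Subgroup.mem_centralizer_singleton_iff.1 hc, mul_inv_cancel_right]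
    have hw := (hbase.conj hG g).conj hG k
    rw [hkx, e] at hw
    refine ⟨_, fun e' => hne' (Subtype.ext ?_), hw⟩
    rw [← e] at e'
    exact Transitivity.conj_injective (Transitivity.conj_injective e')
  exact iso_sym_five hG hprim.1 hW3
    (fun v hv a ha c hc e => triangle_free hG hprim.1 hW3 hpart htrans hv ha hc e)
    (fun v hv a ha => let ⟨c, hca, hw⟩ := hpart v hv a ha; ⟨c, hw.2.1, hca⟩) hconn hx ⟨b, hb⟩

end CfsgLib.Fischer.CoreThree
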